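import Cfsg.Agent.Lib.ToddCox.SuzC0.P0
set_option autoImplicit false
set_option maxRecDepth 100000
namespace Cfsg.Agent.Lib.ToddCox.SuzC0
theorem covered : Covered Eo inv W isH 7147 23492 := (Covered.trans (Covered.trans (Covered.trans c0 c1) (Covered.trans c2 c3)) (Covered.trans (Covered.trans c4 c5) (Covered.trans c6 (Covered.trans c7 c8))))
theorem links : LinksOK Eo cF (2 * nEv) N ys 0 1782 := (LinksOK.trans k0 (LinksOK.trans k1 k2))
theorem defs : ∀ c, c < nDef → chkDef Eo inv c = true := defs_of_bits 7147 13 1 (by norm_num) (by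
  intro j hj
  interval_cases j
  · exact d0
  )
theorem words : ∀ j, j < nW → wordsOK W (relR Rb inv) inv sp j = true := allBelow_spec (by norm_num [nW]) wordsGood
end Cfsg.Agent.Lib.ToddCox.SuzC0
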